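import Mathlib
import Cfsg.Agent.Lib.Helper63.BB.Defs
import Cfsg.Agent.Lib.Helper85.UnifPow
import Cfsg.Agent.Lib.Helper59.MC.Struct

set_option autoImplicit false

/-!
# S4144 (BB) package [CLK]

In a `p`-group of maximal class of order `p ^ (p+2)` every two-step centralizer `K X w`
(`1 ≤ w ≤ p - 1`) has class `< p`.
-/

namespace Cfsg.Agent.Lib.Helper23.BB

open scoped commutatorElement
open Cfsg.Agent.S4209
open Cfsg.Agent.Lib
open Cfsg.Agent.Lib.Helper85.UnifElt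
open Cfsg.Agent.Lib.Helper63.MC (K mem_K)

universe u

/-- commuting of two elements `c ^ a * z₁`, `c ^ b * z₂`. -/
theorem comm_aux {Q : Type*} [Group Q] (c z₁ z₂ : Q) (a b : ℤ) (h1 : Commute z₁ (c ^ b))
    (h2 : Commute z₂ (c ^ a)) (h12 : Commute z₁ z₂) : Commute (c ^ a * z₁) (c ^ b * z₂) :=
  Commute.mul_left (Commute.mul_right (Commute.zpow_zpow_self c a b) h2.symm)
    (Commute.mul_right h1 h12)

/-- `M = ⟨t⟩ A` with `A` normal in `M`... : if the elements of `A` commute modulo `N` with each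
other and with the powers of `t`, then `⁅M, M⁆ ≤ N`. -/
theorem commutator_le_of_cyclic_ext {X : Type u} [Group X] (M A N : Subgroup X) [N.Normal]
    (t : X)
    (hdec : ∀ x ∈ M, ∃ a : ℤ, (t ^ a)⁻¹ * x ∈ A)
    (hAt : ∀ u ∈ A, ∀ a : ℤ, (u * t ^ a)⁻¹ * (t ^ a * u) ∈ N)
    (hAA : ∀ u ∈ A, ∀ v ∈ A, (u * v)⁻¹ * (v * u) ∈ N) : ⁅M, M⁆ ≤ N := by
  rw [Subgroup.commutator_le]
  intro g₁ hg₁ g₂ hg₂
  obtain ⟨a, ha⟩ := hdec g₁ hg₁
  obtain ⟨b, hb⟩ := hdec g₂ hg₂
  have e1 : g₁ = t ^ a * ((t ^ a)⁻¹ * g₁) := by group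
  have e2 : g₂ = t ^ b * ((t ^ b)⁻¹ * g₂) := by group
  obtain ⟨u₁, hu₁⟩ : ∃ u₁, u₁ = (t ^ a)⁻¹ * g₁ := ⟨_, rfl⟩
  obtain ⟨u₂, hu₂⟩ : ∃ u₂, u₂ = (t ^ b)⁻¹ * g₂ := ⟨_, rfl⟩
  rw [← hu₁] at ha e1
  rw [← hu₂] at hb e2
  have hc : Commute (QuotientGroup.mk' N g₁) (QuotientGroup.mk' N g₂) := by
    rw [e1, e2, map_mul, map_mul, map_zpow, map_zpow]
    apply comm_aux
    · show QuotientGroup.mk' N u₁ * (QuotientGroup.mk' N t) ^ b =
        (QuotientGroup.mk' N t) ^ b * QuotientGroup.mk' N u₁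
      rw [← map_zpow, ← map_mul, ← map_mul]
      exact (QuotientGroup.eq).2 (hAt u₁ ha b)
    · show QuotientGroup.mk' N u₂ * (QuotientGroup.mk' N t) ^ a =
        (QuotientGroup.mk' N t) ^ a * QuotientGroup.mk' N u₂
      rw [← map_zpow, ← map_mul, ← map_mul]
      exact (QuotientGroup.eq).2 (hAt u₂ hb a)
    · show QuotientGroup.mk' N u₁ * QuotientGroup.mk' N u₂ =
        QuotientGroup.mk' N u₂ * QuotientGroup.mk' N u₁
      rw [← map_mul, ← map_mul]
      exact (QuotientGroup.eq).2 (hAA u₁ ha u₂ hb)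
  have h1 : QuotientGroup.mk' N ⁅g₁, g₂⁆ = 1 := by
    rw [map_commutatorElement]
    exact commutatorElement_eq_one_iff_commute.2 hc
  exact (QuotientGroup.eq_one_iff _).1 h1

/-- **[CLK]** -/
theorem pkgClassK_of (hKB : Cfsg.Agent.Lib.Helper63.BB.PkgKBasic.{u}) :
    Cfsg.Agent.Lib.Helper63.BB.PkgClassK.{u} := by
  intro X _ _ p _ hcard hcls w hw hwp
  have hp : p.Prime := Fact.out
  have hp2 := hp.two_le
  have hcls' : Group.nilpotencyClass X = (p + 2) - 1 := by rw [hcls]; rfl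
  obtain ⟨hL1K, -, hcardK⟩ := hKB X p (p + 2) (by omega) hcard hcls' w hw (by omega)
  obtain ⟨hcardL, -⟩ := Cfsg.Agent.Lib.Helper59.MC.pkgStruct X p (p + 2) (by omega) hcard hcls'
  have hP : IsPGroup p X := IsPGroup.of_card hcard
  haveI : Group.IsNilpotent X := hP.isNilpotent
  have hcardL1 : Nat.card (L X 1) = p ^ p := by
    have h := hcardL 1 le_rfl (by omega)
    rw [show p + 2 - 1 - 1 = p by omega] at h
    exact h
  have hcardM : Nat.card (K X w) = p * Nat.card (L X 1) := by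
    rw [hcardK, hcardL1, ← pow_succ']
    congr 1
  -- an element of `K w` outside `L 1`
  obtain ⟨t, htM, htL⟩ : ∃ t, t ∈ K X w ∧ t ∉ L X 1 := by
    by_contra hcon
    push Not at hcon
    have hle : K X w ≤ L X 1 := fun x hx => hcon x hx
    have h1 := Subgroup.card_le_of_le hle
    rw [hcardM] at h1
    have hpos : 0 < Nat.card (L X 1) := Nat.card_pos
    nlinarith
  have hdec : ∀ x ∈ K X w, ∃ a : ℤ, (t ^ a)⁻¹ * x ∈ L X 1 := fun x hx =>
    exists_zpow_mul (L_normal 1) hL1K hcardM htM htL hx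
  -- `⁅M, M⁆ ≤ L 2`
  have hstep1 : (K X w).lowerCentralSeries 1 ≤ L X 2 := by
    show ⁅K X w, K X w⁆ ≤ L X 2
    apply commutator_le_of_cyclic_ext (K X w) (L X 1) (L X 2) t hdec
    · intro u hu a
      have e1 : (u * t ^ a)⁻¹ * (t ^ a * u) = (⁅u⁻¹, (t ^ a)⁻¹⁆)⁻¹ := by
        rw [commutatorElement_def]; group
      rw [e1]
      exact Subgroup.inv_mem _ (comm_mem_L (Subgroup.inv_mem _ hu) _)
    · intro u hu v _
      have e1 : (u * v)⁻¹ * (v * u) = (⁅u⁻¹, v⁻¹⁆)⁻¹ := by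
        rw [commutatorElement_def]; group
      rw [e1]
      exact Subgroup.inv_mem _ (comm_mem_L (Subgroup.inv_mem _ hu) _)
  -- `M.lcs j ≤ L (j+1)` for `j ≥ 1`
  have hA : ∀ d, (K X w).lowerCentralSeries (d + 1) ≤ L X (d + 2) := by
    intro d
    induction d with
    | zero => exact hstep1
    | succ d ih =>
      show ⁅(K X w).lowerCentralSeries (d + 1), K X w⁆ ≤ ⁅L X (d + 2), (⊤ : Subgroup X)⁆
      exact Subgroup.commutator_mono ih le_top
  -- `M.lcs w ≤ L (w+2)`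
  have hbase : (K X w).lowerCentralSeries w ≤ L X (w + 2) := by
    by_cases hw1 : w = 1
    · subst hw1
      show ⁅K X 1, K X 1⁆ ≤ L X 3
      apply commutator_le_of_cyclic_ext (K X 1) (L X 1) (L X 3) t hdec
      · intro u hu a
        have hta : (t ^ a)⁻¹ ∈ K X 1 := Subgroup.inv_mem _ (Subgroup.zpow_mem _ htM a)
        have h1 := (mem_K.1 hta) u hu
        have e1 : (u * t ^ a)⁻¹ * (t ^ a * u) = (u⁻¹ * ((t ^ a)⁻¹ * u * (t ^ a)⁻¹⁻¹))⁻¹ := by group
        rw [e1]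
        exact Subgroup.inv_mem _ h1
      · intro u hu v hv
        have e1 : (u * v)⁻¹ * (v * u) = ⁅v⁻¹, u⁻¹⁆ := by
          rw [commutatorElement_def]; group
        rw [e1]
        exact lcs_comm_top 1 1 (Subgroup.commutator_mem_commutator (Subgroup.inv_mem _ hv)
          (Subgroup.inv_mem _ hu))
    · obtain ⟨v, rfl⟩ : ∃ v, w = v + 2 := ⟨w - 2, by omega⟩
      show ⁅(K X (v + 2)).lowerCentralSeries (v + 1), K X (v + 2)⁆ ≤ L X (v + 2 + 2)
      refine (Subgroup.commutator_mono (hA v) le_rfl).trans ?_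
      rw [Subgroup.commutator_le]
      intro a ha g hg
      have h1 := (mem_K.1 hg) a⁻¹ (Subgroup.inv_mem _ ha)
      have e1 : ⁅a, g⁆ = a⁻¹⁻¹ * (g * a⁻¹ * g⁻¹) := by
        rw [commutatorElement_def]; group
      rw [e1]
      exact h1
  -- `M.lcs (w + d) ≤ L (w + d + 2)`
  have hB : ∀ d, (K X w).lowerCentralSeries (w + d) ≤ L X (w + d + 2) := by
    intro d
    induction d with
    | zero => exact hbase
    | succ d ih =>
      show ⁅(K X w).lowerCentralSeries (w + d), K X w⁆ ≤ ⁅L X (w + d + 2), (⊤ : Subgroup X)⁆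
      exact Subgroup.commutator_mono ih le_top
  have hfin := hB (p - 1 - w)
  rw [show w + (p - 1 - w) = p - 1 by omega, show p - 1 + 2 = p + 1 by omega] at hfin
  have hbot : L X (p + 1) = ⊥ :=
    (Subgroup.lowerCentralSeries_eq_bot_iff_nilpotencyClass_le).2 (by omega)
  rw [hbot] at hfin
  exact le_bot_iff.1 hfin

end Cfsg.Agent.Lib.Helper23.BB
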